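import Mathlib

/-!
Embeddings `SL(2,p) → SL(2,q)` from a table of the images of the two elementary root subgroups.
-/

set_option autoImplicit false

namespace CfsgLib.Frob.SL2Embed

/-- A `2 × 2` matrix as a quadruple. -/
abbrev M4 (q : ℕ) := ZMod q × ZMod q × ZMod q × ZMod q

def one4 (q : ℕ) : M4 q := (1, 0, 0, 1)

def mul4 {q : ℕ} (x y : M4 q) : M4 q :=
  (x.1 * y.1 + x.2.1 * y.2.2.1, x.1 * y.2.1 + x.2.1 * y.2.2.2,
    x.2.2.1 * y.1 + x.2.2.2 * y.2.2.1, x.2.2.1 * y.2.1 + x.2.2.2 * y.2.2.2)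

def det4 {q : ℕ} (x : M4 q) : ZMod q := x.1 * x.2.2.2 - x.2.1 * x.2.2.1

def toMat {q : ℕ} (x : M4 q) : Matrix (Fin 2) (Fin 2) (ZMod q) := !![x.1, x.2.1; x.2.2.1, x.2.2.2]

theorem toMat_mul4 {q : ℕ} (x y : M4 q) : toMat (mul4 x y) = toMat x * toMat y := by
  ext i j
  fin_cases i <;> fin_cases j <;> simp [toMat, mul4, Matrix.mul_apply, Fin.sum_univ_two]

theorem toMat_injective {q : ℕ} {x y : M4 q} (h : toMat x = toMat y) : x = y := by
  have h1 : x.1 = y.1 := congrFun (congrFun h 0) 0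
  have h2 : x.2.1 = y.2.1 := congrFun (congrFun h 0) 1
  have h3 : x.2.2.1 = y.2.2.1 := congrFun (congrFun h 1) 0
  have h4 : x.2.2.2 = y.2.2.2 := congrFun (congrFun h 1) 1
  exact Prod.ext h1 (Prod.ext h2 (Prod.ext h3 h4))

section

variable {p q : ℕ} (inv : ZMod p → ZMod p) (U L : ZMod p → M4 q)

/-- Image of `!![a,b;c,d]` with `c ≠ 0`. -/
def word (a c d : ZMod p) : M4 q :=
  mul4 (mul4 (U ((a - 1) * inv c)) (L c)) (U ((d - 1) * inv c))

/-- Image of `!![a,b;c,d]`. -/
def img (a b c d : ZMod p) : M4 q :=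
  if c = 0 then mul4 (L 1) (word inv U L a (c - a) (d - b)) else word inv U L a c d

def upper (x : ZMod p) : Matrix.SpecialLinearGroup (Fin 2) (ZMod p) :=
  ⟨!![1, x; 0, 1], by simp [Matrix.det_fin_two]⟩

def lower (x : ZMod p) : Matrix.SpecialLinearGroup (Fin 2) (ZMod p) :=
  ⟨!![1, 0; x, 1], by simp [Matrix.det_fin_two]⟩

@[simp] theorem coe_upper (x : ZMod p) :
    (upper x : Matrix (Fin 2) (Fin 2) (ZMod p)) = !![1, x; 0, 1] := rfl

@[simp] theorem coe_lower (x : ZMod p) :
    (lower x : Matrix (Fin 2) (Fin 2) (ZMod p)) = !![1, 0; x, 1] := rfl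

theorem exists_hom [Fact p.Prime]
    (hinv : ∀ c : ZMod p, c ≠ 0 → inv c * c = 1)
    (hdet : ∀ a b c d : ZMod p, a * d - b * c = 1 → det4 (img inv U L a b c d) = 1)
    (hone : img inv U L 1 0 0 1 = one4 q)
    (hU : ∀ a b c d : ZMod p, a * d - b * c = 1 →
      img inv U L (a + c) (b + d) c d = mul4 (img inv U L 1 1 0 1) (img inv U L a b c d))
    (hL : ∀ a b c d : ZMod p, a * d - b * c = 1 →
      img inv U L a b (a + c) (b + d) = mul4 (img inv U L 1 0 1 1) (img inv U L a b c d))
    (hinj : ∀ a b c d : ZMod p, a * d - b * c = 1 → img inv U L a b c d = one4 q →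
      a = 1 ∧ b = 0 ∧ c = 0 ∧ d = 1) :
    ∃ f : Matrix.SpecialLinearGroup (Fin 2) (ZMod p) →* Matrix.SpecialLinearGroup (Fin 2) (ZMod q),
      Function.Injective f := by
  have hd : ∀ g : Matrix.SpecialLinearGroup (Fin 2) (ZMod p),
      g.1 0 0 * g.1 1 1 - g.1 0 1 * g.1 1 0 = 1 := fun g => by
    rw [← Matrix.det_fin_two]; exact g.2
  let f : Matrix.SpecialLinearGroup (Fin 2) (ZMod p) → Matrix.SpecialLinearGroup (Fin 2) (ZMod q) :=
    fun g => ⟨toMat (img inv U L (g.1 0 0) (g.1 0 1) (g.1 1 0) (g.1 1 1)), by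
      rw [Matrix.det_fin_two]
      exact hdet _ _ _ _ (hd g)⟩
  have hf1 : f 1 = 1 := by
    apply Subtype.ext
    show toMat (img inv U L _ _ _ _) = _
    simp only [Matrix.SpecialLinearGroup.coe_one, Matrix.one_apply_eq,
      Matrix.one_apply_ne (show (0 : Fin 2) ≠ 1 by decide),
      Matrix.one_apply_ne (show (1 : Fin 2) ≠ 0 by decide), hone]
    ext i j
    fin_cases i <;> fin_cases j <;> rfl
  let S : Submonoid (Matrix.SpecialLinearGroup (Fin 2) (ZMod p)) :=
    { carrier := {g | ∀ h, f (g * h) = f g * f h}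
      one_mem' := fun h => by rw [one_mul, hf1, one_mul]
      mul_mem' := fun {a b} ha hb h => by rw [mul_assoc, ha, hb, ha, mul_assoc] }
  have hu1 : upper 1 ∈ S := fun h => by
    apply Subtype.ext
    show toMat (img inv U L _ _ _ _) = toMat _ * toMat _
    rw [← toMat_mul4]
    simpa [Matrix.mul_apply, Fin.sum_univ_two] using congrArg toMat (hU _ _ _ _ (hd h))
  have hl1 : lower 1 ∈ S := fun h => by
    apply Subtype.ext
    show toMat (img inv U L _ _ _ _) = toMat _ * toMat _
    rw [← toMat_mul4]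
    simpa [Matrix.mul_apply, Fin.sum_univ_two] using congrArg toMat (hL _ _ _ _ (hd h))
  have hu : ∀ n : ℕ, upper (n : ZMod p) ∈ S := by
    intro n
    induction n with
    | zero =>
      have : upper ((0 : ℕ) : ZMod p) = 1 := by
        apply Subtype.ext; ext i j; fin_cases i <;> fin_cases j <;> simp
      rw [this]; exact S.one_mem
    | succ n ih =>
      have : upper ((n + 1 : ℕ) : ZMod p) = upper 1 * upper (n : ZMod p) := by
        apply Subtype.ext; ext i j
        fin_cases i <;> fin_cases j <;> simp [Matrix.mul_apply, Fin.sum_univ_two]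
      rw [this]; exact S.mul_mem hu1 ih
  have hl : ∀ n : ℕ, lower (n : ZMod p) ∈ S := by
    intro n
    induction n with
    | zero =>
      have : lower ((0 : ℕ) : ZMod p) = 1 := by
        apply Subtype.ext; ext i j; fin_cases i <;> fin_cases j <;> simp
      rw [this]; exact S.one_mem
    | succ n ih =>
      have : lower ((n + 1 : ℕ) : ZMod p) = lower 1 * lower (n : ZMod p) := by
        apply Subtype.ext; ext i j
        fin_cases i <;> fin_cases j <;> simp [Matrix.mul_apply, Fin.sum_univ_two, add_comm]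
      rw [this]; exact S.mul_mem hl1 ih
  have hu' : ∀ x, upper x ∈ S := fun x => by simpa using hu x.val
  have hl' : ∀ x, lower x ∈ S := fun x => by simpa using hl x.val
  have hc : ∀ g : Matrix.SpecialLinearGroup (Fin 2) (ZMod p), g.1 1 0 ≠ 0 → g ∈ S := by
    intro g hg
    have hi := hinv _ hg
    have e : g = upper ((g.1 0 0 - 1) * inv (g.1 1 0)) * lower (g.1 1 0) *
        upper ((g.1 1 1 - 1) * inv (g.1 1 0)) := by
      apply Subtype.ext; ext i j
      fin_cases i <;> fin_cases j <;> simp [ Matrix.mul_apply, Fin.sum_univ_two] <;> [skip; skip; skip]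
      · linear_combination (-(g.1 0 0 - 1)) * hi
      · apply mul_left_cancel₀ hg
        linear_combination -(hd g) - ((g.1 0 0 - 1) * (g.1 1 1 - 1)) * inv (g.1 1 0) * g.1 1 0 * hi +
          (-(g.1 0 0 * g.1 1 1 - 1)) * hi
      · linear_combination (-(g.1 1 1 - 1)) * hi
    rw [e]
    exact S.mul_mem (S.mul_mem (hu' _) (hl' _)) (hu' _)
  have hall : ∀ g, g ∈ S := by
    intro g
    by_cases hg : g.1 1 0 = 0
    · have e : g = lower 1 * (lower (-1) * g) := by
        have e' : (lower 1 : Matrix.SpecialLinearGroup (Fin 2) (ZMod p)) * lower (-1) = 1 := by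
          apply Subtype.ext; ext i j
          fin_cases i <;> fin_cases j <;> simp [Matrix.mul_apply, Fin.sum_univ_two]
        rw [← mul_assoc, e', one_mul]
      rw [e]
      refine S.mul_mem hl1 (hc _ ?_)
      simp only [coe_lower, Matrix.SpecialLinearGroup.coe_mul, Matrix.mul_apply, Fin.sum_univ_two]
      simp [hg]
      intro h0
      have := hd g
      rw [hg, h0] at this
      simp at this
    · exact hc g hg
  refine ⟨MonoidHom.mk ⟨f, hf1⟩ (fun a b => hall a b), (injective_iff_map_eq_one _).mpr fun g hg => ?_⟩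
  have h1 : toMat (img inv U L (g.1 0 0) (g.1 0 1) (g.1 1 0) (g.1 1 1)) = 1 := congrArg Subtype.val hg
  have h2 : toMat (one4 q) = 1 := by
    ext i j
    fin_cases i <;> fin_cases j <;> rfl
  obtain ⟨e1, e2, e3, e4⟩ := hinj _ _ _ _ (hd g) (toMat_injective (h1.trans h2.symm))
  apply Subtype.ext; ext i j
  fin_cases i <;> fin_cases j <;> simp [e1, e2, e3, e4]

end

end CfsgLib.Frob.SL2Embed
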